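import Cfsg.Agent.Fischer919.CentralQuot

/-!
# Groups which are central quotients of normal subgroups
-/

set_option autoImplicit false

namespace Cfsg.Agent.H807.CommEquiv

open Cfsg.Agent.Fischer919.CentralQuot

open scoped commutatorElement

universe u v

/-- If `H ≅ N ⧸ Z(N)` with `[H, H]` simple and not abelian, then `[H, H] ≅ [N, N] ⧸ Z([N, N])`. -/
theorem equiv_commutator_quot {N : Type u} [Group N] {H : Type v} [Group H]
    (e : H ≃* N ⧸ Subgroup.center N) (hs : IsSimpleGroup (commutator H))
    (hna : ∃ x y : commutator H, x * y ≠ y * x) :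
    Nonempty (↥(commutator H) ≃* (↥(commutator N) ⧸ Subgroup.center ↥(commutator N))) := by
  let π : N →* H := e.symm.toMonoidHom.comp (QuotientGroup.mk' (Subgroup.center N))
  have hπ : Function.Surjective π := e.symm.surjective.comp (QuotientGroup.mk'_surjective _)
  have hker : ∀ x, π x = 1 ↔ x ∈ Subgroup.center N := by
    intro x
    show e.symm (QuotientGroup.mk' (Subgroup.center N) x) = 1 ↔ _
    rw [map_eq_one_iff e.symm e.symm.injective, QuotientGroup.mk'_apply, QuotientGroup.eq_one_iff]
  have hmap : (commutator N).map π = commutator H := by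
    rw [_root_.commutator_def, _root_.commutator_def, Subgroup.map_commutator,
      Subgroup.map_top_of_surjective _ hπ]
  let ρ : ↥(commutator N) →* ↥(commutator H) := (π.comp (commutator N).subtype).codRestrict _ (by
    intro x
    rw [← hmap]
    exact ⟨x, x.2, rfl⟩)
  have hρ : Function.Surjective ρ := by
    rintro ⟨y, hy⟩
    rw [← hmap] at hy
    obtain ⟨x, hx, hxy⟩ := hy
    exact ⟨⟨x, hx⟩, Subtype.ext hxy⟩
  have hzH : Subgroup.center ↥(commutator H) = ⊥ := by
    rcases IsSimpleGroup.eq_bot_or_eq_top_of_normal (Subgroup.center ↥(commutator H))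
      inferInstance with h | h
    · exact h
    · exfalso
      obtain ⟨x, y, hxy⟩ := hna
      apply hxy
      have : y ∈ Subgroup.center ↥(commutator H) := by rw [h]; trivial
      exact (Subgroup.mem_center_iff.1 this) x
  have hk : ρ.ker = Subgroup.center ↥(commutator N) := by
    ext a
    rw [MonoidHom.mem_ker]
    constructor
    · intro h
      have h1 : π (a : N) = 1 := congrArg Subtype.val h
      rw [hker, Subgroup.mem_center_iff] at h1
      rw [Subgroup.mem_center_iff]
      intro g
      exact Subtype.ext (h1 g)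
    · intro h
      have h1 : ρ a ∈ Subgroup.center ↥(commutator H) := by
        rw [Subgroup.mem_center_iff] at h ⊢
        intro g
        obtain ⟨g, rfl⟩ := hρ g
        rw [← map_mul, ← map_mul, h]
      rw [hzH, Subgroup.mem_bot] at h1
      exact h1
  exact ⟨((QuotientGroup.quotientMulEquivOfEq hk.symm).trans
    (QuotientGroup.quotientKerEquivOfSurjective ρ hρ)).symm⟩

/-- If `N` is a normal subgroup of `O`, `H ≅ N ⧸ Z(N)` with `[H, H]` simple and not abelian, and
`[O, O] ⧸ Z([O, O])` is simple, then `[H, H] ≅ [O, O] ⧸ Z([O, O])`. -/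
theorem comm_equiv {O : Type u} [Group O] (N : Subgroup O) (hN : N.Normal) {H : Type v} [Group H]
    (e : H ≃* ↥N ⧸ Subgroup.center ↥N) (hs : IsSimpleGroup (commutator H))
    (hna : ∃ x y : commutator H, x * y ≠ y * x)
    (hO : IsSimpleGroup (↥(commutator O) ⧸ Subgroup.center ↥(commutator O))) :
    Nonempty (↥(commutator H) ≃* (↥(commutator O) ⧸ Subgroup.center ↥(commutator O))) := by
  obtain ⟨e1⟩ := equiv_commutator_quot e hs hna
  let A : Subgroup O := (commutator ↥N).map N.subtype
  have hA : A.Normal := by
    have : A = ⁅N, N⁆ := by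
      show (commutator ↥N).map N.subtype = _
      rw [_root_.commutator_def, Subgroup.map_commutator, ← MonoidHom.range_eq_map,
        Subgroup.range_subtype]
    rw [this]
    exact Subgroup.commutator_normal N N
  let k : ↥(commutator ↥N) ≃* ↥A :=
    (commutator ↥N).equivMapOfInjective N.subtype N.subtype_injective
  obtain ⟨e2⟩ := equiv_quotient_center k
  have e3 : ↥(commutator H) ≃* ↥A ⧸ Subgroup.center ↥A := e1.trans e2
  have hs' : IsSimpleGroup (↥A ⧸ Subgroup.center ↥A) := e3.symm.isSimpleGroup
  have hna' : ∃ x y : ↥A ⧸ Subgroup.center ↥A, x * y ≠ y * x := by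
    obtain ⟨x, y, hxy⟩ := hna
    refine ⟨e3 x, e3 y, fun h => hxy ?_⟩
    apply e3.injective
    rw [map_mul, map_mul]
    exact h
  obtain ⟨e4⟩ := equiv_commutator A hA hs' hna' hO
  exact ⟨e3.trans e4⟩

end Cfsg.Agent.H807.CommEquiv
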