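import Cfsg.Agent.H807.Tri
import Cfsg.Agent.H807.Orb
import Cfsg.Agent.H809.Width
import Cfsg.Agent.S0480U.UModel

/-!
# Exclusion of the types `Sp`, `U`, `T6`, `T7`, `T8`, `Sym` for the blocks of a class with disconnected commuting graph
-/

set_option autoImplicit false

namespace Cfsg.Agent.H807.Excl

open Cfsg Cfsg.Agent.SporadicB.ThreeTrans Cfsg.Agent.ThreeTrans375.Basic Cfsg.Agent.H805.Base
  Cfsg.Agent.H807.Tri Cfsg.Agent.Fischer480.Defs

universe u

variable {G : Type u} [Group G] {D : Set G} {L : Subgroup G}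

theorem pow_dvd_ncard [Finite G] (C : Cfg D L) {d : G} (hd : d ∈ D) {A : Set ↥(HH L d)}
    (hA : A ⊆ EE D L d) (hc : ∀ a ∈ A, ∀ b ∈ A, Commute a b) {k : ℕ} (hk : 2 ^ k < A.ncard) :
    2 ^ (k + 1) ∣ (EE D L d).ncard := by
  have e : A ≃ Fin A.ncard := Finite.equivFin A
  obtain ⟨τ, h1, h2, h3, -⟩ := C.exists_family hd (fun i => ((e.symm i : A) : ↥(HH L d)))
    (fun i => hA (e.symm i).2) (fun i j hij => e.symm.injective (Subtype.ext hij))
    (fun i j => hc _ (e.symm i).2 _ (e.symm j).2)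
  exact Orb.pow_dvd (fun g x hx => C.EE_conj g hx) τ (fun i j hij => (h1 i j hij).free) h2 h3 hk

/-- there are two distinct commuting members -/
theorem exists_pair [Finite G] (C : Cfg D L) {d : G} (hd : d ∈ D) :
    ∃ a ∈ EE D L d, ∃ b ∈ EE D L d, a ≠ b ∧ Commute a b := by
  obtain ⟨x, hx, h7, h8⟩ := H805.Comp.exists_two C.hD C.hL hd
  have hxd : x * d * x⁻¹ ∈ D := C.hC x d hd
  have hmem : x * d * x⁻¹ ∈ HH L d :=
    (HH L d).mul_mem ((HH L d).mul_mem (L_le_HH L d hx) (self_mem_HH L d))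
      ((HH L d).inv_mem (L_le_HH L d hx))
  refine ⟨⟨d, self_mem_HH L d⟩, hd, ⟨x * d * x⁻¹, hmem⟩, hxd, ?_, ?_⟩
  · intro h9
    apply h8
    have h10 : d = x * d * x⁻¹ := congrArg Subtype.val h9
    rw [← h10]
    exact mul_self C.hE hd
  · exact Subtype.ext (H805.Width.commute_of_sq C.hE hd hxd h7)

theorem even_ncard [Finite G] (C : Cfg D L) {d : G} (hd : d ∈ D) : 2 ∣ (EE D L d).ncard := by
  obtain ⟨a, ha, b, hb, hab, hc⟩ := exists_pair C hd
  have h := pow_dvd_ncard C hd (A := {a, b}) (k := 0)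
    (by rintro x (rfl | rfl); exacts [ha, hb])
    (by
      rintro x (rfl | rfl) y (rfl | rfl)
      exacts [Commute.refl _, hc, hc.symm, Commute.refl _])
    (by rw [Set.ncard_pair hab]; norm_num)
  simpa using h

/-- an element acting freely -/
theorem exists_free [Finite G] (C : Cfg D L) {d : G} (hd : d ∈ D) :
    ∃ t : ↥(HH L d), Free (EE D L d) t ∧ (t : G) ∈ L := by
  obtain ⟨a, ha, b, hb, hab, hc⟩ := exists_pair C hd
  obtain ⟨τ, h1, -, -, hL⟩ := C.exists_family hd ![a, b]
    (by intro i; fin_cases i; exacts [ha, hb])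
    (by
      intro i j hij
      fin_cases i <;> fin_cases j
      · rfl
      · exact absurd hij hab
      · exact absurd hij.symm hab
      · rfl)
    (by
      intro i j
      fin_cases i <;> fin_cases j
      · exact Commute.refl _
      · exact hc
      · exact hc.symm
      · exact Commute.refl _)
  exact ⟨_, h1 0 1 (by decide), L.mul_mem (L.inv_mem (hL 0)) (hL 1)⟩

theorem not_isT6 [Finite G] (C : Cfg D L) {d : G} (hd : d ∈ D) : ¬ IsT6 (EE D L d) := by
  intro h
  obtain ⟨A, hA, -, hc, hcard⟩ := (H809.Width.hasWidth_T6 h).ex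
  have h1 := pow_dvd_ncard C hd (k := 1) hA hc (by rw [hcard]; norm_num)
  rw [h.1] at h1
  norm_num at h1

theorem not_isT7 [Finite G] (C : Cfg D L) {d : G} (hd : d ∈ D) : ¬ IsT7 (EE D L d) := by
  intro h
  have h1 := even_ncard C hd
  rw [h.1] at h1
  norm_num at h1

theorem not_isT8 [Finite G] (C : Cfg D L) {d : G} (hd : d ∈ D) : ¬ IsT8 (EE D L d) := by
  intro h
  obtain ⟨A, hA, -, hc, hcard⟩ := (H809.Width.hasWidth_T8 h).ex
  have h1 := pow_dvd_ncard C hd (k := 3) hA hc (by rw [hcard]; norm_num)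
  rw [h.1] at h1
  norm_num at h1

theorem not_isU [Finite G] (C : Cfg D L) {d : G} (hd : d ∈ D) {n : ℕ} (hn : 4 ≤ n) :
    ¬ IsU n (EE D L d) := by
  intro h
  obtain ⟨F, i1, i2, f, U⟩ := S0480U.UModel.exists_um h
  have h1 := S0480U.UModel.three_mul_ncard_eq U
  have h2 := even_ncard C hd
  obtain ⟨m, hm⟩ := h2
  rw [hm] at h1
  obtain ⟨k, rfl⟩ : ∃ k, n = k + 2 := ⟨n - 2, by omega⟩
  have e1 : 2 ^ (k + 2) = 2 * 2 ^ (k + 1) := by ring
  have e2 : k + 2 - 1 = k + 1 := rfl
  have e3 : 2 ^ (k + 1) = 2 * 2 ^ k := by ring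
  have hpos : 0 < 2 ^ k := by positivity
  rw [e2] at h1
  have key : Odd (3 * (2 * m)) := by
    rw [h1]
    split_ifs
    · apply Odd.mul
      · exact ⟨2 ^ (k + 1) - 1, by omega⟩
      · exact ⟨2 ^ k, by omega⟩
    · apply Odd.mul
      · exact ⟨2 ^ (k + 1), by omega⟩
      · exact ⟨2 ^ k - 1, by omega⟩
  have hev : Even (3 * (2 * m)) := ⟨3 * m, by ring⟩
  exact (Nat.not_even_iff_odd.2 key) hev

theorem ncard_isSp {H : Type u} [Group H] {E : Set H} {n : ℕ} (h : IsSp n E) :
    E.ncard + 1 = 2 ^ (2 * n) := by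
  obtain ⟨B, f, -, -, hne, -, hinj, hsurj⟩ := h
  have h1 : f '' E = {v | v ≠ 0} := by
    ext v
    constructor
    · rintro ⟨x, hx, rfl⟩; exact hne x hx
    · intro hv
      obtain ⟨x, hx, rfl⟩ := hsurj v hv
      exact ⟨x, hx, rfl⟩
  have h2 : E.ncard = ({v : Fin (2 * n) → ZMod 2 | v ≠ 0}).ncard := by
    rw [← h1, Set.InjOn.ncard_image (fun x hx y hy hxy => hinj x hx y hy hxy)]
  rw [h2]
  have h3 : ({v : Fin (2 * n) → ZMod 2 | v ≠ 0}) = ({0} : Set (Fin (2 * n) → ZMod 2))ᶜ := by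
    ext v; simp
  have h4 := Set.ncard_add_ncard_compl ({0} : Set (Fin (2 * n) → ZMod 2))
  rw [Set.ncard_singleton] at h4
  rw [h3, add_comm, h4]
  simp

theorem not_isSp [Finite G] (C : Cfg D L) {d : G} (hd : d ∈ D) {n : ℕ} (hn : 2 ≤ n) :
    ¬ IsSp n (EE D L d) := by
  intro h
  have h1 := ncard_isSp h
  obtain ⟨m, hm⟩ := even_ncard C hd
  obtain ⟨k, rfl⟩ : ∃ k, n = k + 1 := ⟨n - 1, by omega⟩
  have : 2 ^ (2 * (k + 1)) = 2 * 2 ^ (2 * k + 1) := by ring
  omega

/-! ### The symmetric groups -/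

/-- two different commuting pairs are disjoint -/
theorem not_isSym_aux {H : Type u} [Group H] {E : Set H} (hE : ∀ g : H, ∀ x ∈ E, g * x * g⁻¹ ∈ E)
    {t : H} (ht : Free E t) {n : ℕ} (hn : 5 ≤ n) : ¬ IsSym n E := by
  rintro ⟨f, hcard, hcomm, hinj, hsurj⟩
  -- the action
  set s : H → H := fun x => t * x * t⁻¹ with hs
  have hsE : ∀ x ∈ E, s x ∈ E := fun x hx => hE t x hx
  have htt : t⁻¹ = t := inv_eq_of_mul_eq_one_left ht.sq
  have hss : ∀ x, s (s x) = x := by
    intro x
    show t * (t * x * t⁻¹) * t⁻¹ = x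
    rw [htt]
    calc t * (t * x * t) * t = (t * t) * x * (t * t) := by simp only [mul_assoc]
      _ = x := by rw [ht.sq, one_mul, mul_one]
  have hsc : ∀ x y, Commute (s x) (s y) ↔ Commute x y := fun x y => commute_conj_iff t
  have hne : ∀ x ∈ E, f x ≠ f (s x) := by
    intro x hx h
    have h1 := hinj x hx _ (hsE x hx) h
    apply ht.free x hx
    exact (conj_eq_self_iff.1 h1.symm).symm
  have hdisj : ∀ x ∈ E, Disjoint (f x) (f (s x)) := by
    intro x hx
    exact ((hcomm x hx _ (hsE x hx)).1 (ht.comm x hx)).resolve_left (hne x hx)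
  -- membership descriptions
  have hmk : ∀ i j : Fin n, i ≠ j → ∃ x ∈ E, f x = {i, j} := fun i j hij =>
    hsurj _ (Finset.card_pair hij)
  -- noncommuting iff they meet in exactly one point
  have hnc : ∀ x ∈ E, ∀ y ∈ E, f x ≠ f y → (∃ i, i ∈ f x ∧ i ∈ f y) →
      f (s x) ≠ f (s y) ∧ ∃ i, i ∈ f (s x) ∧ i ∈ f (s y) := by
    intro x hx y hy hxy hi
    have h1 : ¬ Commute x y := by
      rw [hcomm x hx y hy]
      rintro (h2 | h2)
      · exact hxy h2
      · obtain ⟨i, hi1, hi2⟩ := hi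
        exact Finset.disjoint_left.1 h2 hi1 hi2
    have h2 : ¬ Commute (s x) (s y) := fun h3 => h1 ((hsc x y).1 h3)
    rw [hcomm _ (hsE x hx) _ (hsE y hy), not_or] at h2
    refine ⟨h2.1, ?_⟩
    exact Finset.not_disjoint_iff.1 h2.2
  have hcc : ∀ x ∈ E, ∀ y ∈ E, Disjoint (f x) (f y) → f (s x) = f (s y) ∨ Disjoint (f (s x)) (f (s y)) := by
    intro x hx y hy hxy
    rw [← hcomm _ (hsE x hx) _ (hsE y hy), hsc, hcomm x hx y hy]
    exact Or.inr hxy
  -- choose `a`
  have hn0 : 0 < n := by omega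
  obtain ⟨a, ha, hfa⟩ := hmk ⟨0, by omega⟩ ⟨1, by omega⟩ (by simp [Fin.ext_iff])
  obtain ⟨p, q, hpq, hfa⟩ : ∃ p q : Fin n, p ≠ q ∧ f a = {p, q} := Finset.card_eq_two.1 (hcard a ha)
  obtain ⟨r, v, hrv, hfb⟩ := Finset.card_eq_two.1 (hcard _ (hsE a ha))
  have hd := hdisj a ha
  rw [hfa, hfb, Finset.disjoint_left] at hd
  have hpr : p ≠ r := fun h => hd (a := p) (by simp) (by simp [h])
  have hpv : p ≠ v := fun h => hd (a := p) (by simp) (by simp [h])
  have hqr : q ≠ r := fun h => hd (a := q) (by simp) (by simp [h])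
  have hqv : q ≠ v := fun h => hd (a := q) (by simp) (by simp [h])
  -- a fifth point
  obtain ⟨x, hx⟩ : ∃ x : Fin n, x ∉ ({p, q, r, v} : Finset (Fin n)) := by
    by_contra hcon
    push Not at hcon
    have h1 : (Finset.univ : Finset (Fin n)) ⊆ {p, q, r, v} := fun x _ => hcon x
    have h2 := Finset.card_le_card h1
    rw [Finset.card_univ, Fintype.card_fin] at h2
    have h3 : ({p, q, r, v} : Finset (Fin n)).card ≤ 4 := Finset.card_le_four
    omega
  simp only [Finset.mem_insert, Finset.mem_singleton, not_or] at hx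
  obtain ⟨hxp, hxq, hxr, hxv⟩ := hx
  -- the image of `{p, r}` is `{q, v}`
  have himg : ∀ p q r v : Fin n, p ≠ q → p ≠ r → p ≠ v → q ≠ r → q ≠ v → r ≠ v →
      f a = {p, q} → f (s a) = {r, v} → ∀ c ∈ E, f c = {p, r} → f (s c) = {q, v} := by
    intro p q r v hpq hpr hpv hqr hqv hrv hfa hfb c hc hfc
    have h1 := hnc a ha c hc (by
      rw [hfa, hfc]; intro h
      have : q ∈ ({p, r} : Finset (Fin n)) := by rw [← h]; simp
      simp only [Finset.mem_insert, Finset.mem_singleton] at this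
      rcases this with h | h
      · exact hpq h.symm
      · exact hqr h) ⟨p, by rw [hfa]; simp, by rw [hfc]; simp⟩
    have h2 := hnc (s a) (hsE a ha) c hc (by
      rw [hfb, hfc]; intro h
      have : v ∈ ({p, r} : Finset (Fin n)) := by rw [← h]; simp
      simp only [Finset.mem_insert, Finset.mem_singleton] at this
      rcases this with h | h
      · exact hpv h.symm
      · exact hrv h.symm) ⟨r, by rw [hfb]; simp, by rw [hfc]; simp⟩
    rw [hss] at h2
    have h3 := hdisj c hc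
    rw [hfc, Finset.disjoint_left] at h3
    have h4 : p ∉ f (s c) := h3 (by simp)
    have h5 : r ∉ f (s c) := h3 (by simp)
    obtain ⟨i, hi1, hi2⟩ := h1.2
    obtain ⟨j, hj1, hj2⟩ := h2.2
    rw [hfb] at hi1
    rw [hfa] at hj1
    simp only [Finset.mem_insert, Finset.mem_singleton] at hi1 hj1
    have hv : v ∈ f (s c) := by
      rcases hi1 with rfl | rfl
      · exact absurd hi2 h5
      · exact hi2
    have hq : q ∈ f (s c) := by
      rcases hj1 with rfl | rfl
      · exact absurd hj2 h4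
      · exact hj2
    symm
    apply Finset.eq_of_subset_of_card_le
    · intro i hi
      simp only [Finset.mem_insert, Finset.mem_singleton] at hi
      rcases hi with rfl | rfl
      · exact hq
      · exact hv
    · rw [hcard _ (hsE c hc), Finset.card_pair hqv]
  obtain ⟨c, hc, hfc⟩ := hmk p r hpr
  obtain ⟨c', hc', hfc'⟩ := hmk p v hpv
  have hsc1 := himg p q r v hpq hpr hpv hqr hqv hrv hfa hfb c hc hfc
  have hsc2 := himg p q v r hpq hpv hpr hqv hqr (Ne.symm hrv) hfa
    (by rw [hfb, Finset.pair_comm]) c' hc' hfc'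
  obtain ⟨e, he, hfe⟩ := hmk p x (Ne.symm hxp)
  -- `e` meets `a`, `c`, `c'`
  have hmeet : ∀ y : Fin n, x ≠ y → p ≠ y → ∀ b ∈ E, f b = {p, y} → ∃ i, i ∈ f (s b) ∧ i ∈ f (s e) := by
    intro y hxy hpy b hb hfb'
    refine (hnc b hb e he ?_ ⟨p, by rw [hfb']; simp, by rw [hfe]; simp⟩).2
    rw [hfb', hfe]
    intro h
    have : y ∈ ({p, x} : Finset (Fin n)) := by rw [← h]; simp
    simp only [Finset.mem_insert, Finset.mem_singleton] at this
    rcases this with h | h
    · exact hpy h.symm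
    · exact hxy h.symm
  obtain ⟨i1, hi1, hi1'⟩ := hmeet r hxr hpr c hc hfc
  obtain ⟨i2, hi2, hi2'⟩ := hmeet v hxv hpv c' hc' hfc'
  rw [hsc1] at hi1
  rw [hsc2] at hi2
  simp only [Finset.mem_insert, Finset.mem_singleton] at hi1 hi2
  -- `s e` is disjoint from `{p, q}`
  have hbe : Disjoint (f (s a)) (f e) := by
    rw [hfb, hfe, Finset.disjoint_left]
    intro i hi
    simp only [Finset.mem_insert, Finset.mem_singleton] at hi ⊢
    rcases hi with rfl | rfl
    · rintro (h | h)
      · exact hpr h.symm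
      · exact hxr h.symm
    · rintro (h | h)
      · exact hpv h.symm
      · exact hxv h.symm
  have hq : q ∉ f (s e) := by
    rcases hcc _ (hsE a ha) e he hbe with h | h
    · rw [hss] at h
      intro _
      -- `s e = a`
      have h1 : a = s e := hinj a ha _ (hsE e he) h
      have h2 : s a = e := by rw [h1, hss]
      rw [h2, hfe] at hfb
      have h3 : p ∈ ({r, v} : Finset (Fin n)) := by rw [← hfb]; simp
      simp only [Finset.mem_insert, Finset.mem_singleton] at h3
      rcases h3 with h3 | h3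
      · exact hpr h3
      · exact hpv h3
    · rw [hss, hfa, Finset.disjoint_left] at h
      exact h (by simp)
  have hv : v ∈ f (s e) := by
    rcases hi1 with rfl | rfl
    · exact absurd hi1' hq
    · exact hi1'
  have hr : r ∈ f (s e) := by
    rcases hi2 with rfl | rfl
    · exact absurd hi2' hq
    · exact hi2'
  have hfin : f (s a) = f (s e) := by
    rw [hfb]
    apply Finset.eq_of_subset_of_card_le
    · intro i hi
      simp only [Finset.mem_insert, Finset.mem_singleton] at hi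
      rcases hi with rfl | rfl
      · exact hr
      · exact hv
    · rw [hcard _ (hsE e he), Finset.card_pair hrv]
  have h1 : s a = s e := hinj _ (hsE a ha) _ (hsE e he) hfin
  have h2 : a = e := by rw [← hss a, h1, hss]
  rw [h2, hfe] at hfa
  have h3 : x ∈ ({p, q} : Finset (Fin n)) := by rw [← hfa]; simp
  simp only [Finset.mem_insert, Finset.mem_singleton] at h3
  rcases h3 with h3 | h3
  · exact hxp h3
  · exact hxq h3

theorem not_isSym [Finite G] (C : Cfg D L) {d : G} (hd : d ∈ D) {n : ℕ} (hn : 5 ≤ n) :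
    ¬ IsSym n (EE D L d) := by
  obtain ⟨t, ht, -⟩ := exists_free C hd
  exact not_isSym_aux (fun g x hx => C.EE_conj g hx) ht hn

end Cfsg.Agent.H807.Excl
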