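import Cfsg.Agent.Fischer891.FinalO
import Cfsg.Agent.H807.Excl

/-!
# Blocks of type `O^ε(2n, 2)`: `n` is even
-/

set_option autoImplicit false

namespace Cfsg.Agent.H807.IdO

open Cfsg Cfsg.Agent.Fischer480.Defs Cfsg.Agent.SporadicStructure.FischerSpace
open Cfsg.Agent.ThreeTransPolar.Basic Cfsg.Agent.Fischer891.Lin Cfsg.Agent.Fischer891.OUp
open Cfsg.Agent.Fischer891.Parity Cfsg.Agent.Fischer891.KerParity Cfsg.Agent.Fischer891.FinalO Module
open Cfsg.Agent.H807.Tri Cfsg.Agent.H807.Excl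

universe u

section General

variable {G : Type u} [Group G] {D : Set G} {n : ℕ}
  {Q : QuadraticForm (ZMod 2) (Fin (2 * n) → ZMod 2)} {f : G → Fin (2 * n) → ZMod 2}

/-- conjugation by a member is the transvection -/
theorem f_conj (h : FData D) (C : OChart n D Q f) (hn : 3 ≤ n) {d y : G} (hd : d ∈ D) (hy : y ∈ D) :
    f (cj d y) = tv Q (f d) (f y) := by
  rw [tv_apply]
  by_cases hc : Commute d y
  · rw [cj_of_commute hc]
    have h1 : QuadraticMap.polar Q (f y) (f d) = 0 := (C.comm y hy d hd).1 hc.symm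
    rw [h1, zero_smul, add_zero]
  · rw [third_eq h C hn hd hy hc]
    have h1 : QuadraticMap.polar Q (f y) (f d) = 1 := by
      apply z2_ne_zero
      intro h2
      exact hc ((C.comm y hy d hd).2 h2).symm
    rw [h1, one_smul, add_comm]

/-- every signed word acts as an isometry, whose fixed space has the right parity -/
theorem exists_isometry (h : FData D) (C : OChart n D Q f) (hn : 3 ≤ n) :
    ∀ p ∈ words D, ∃ γ : (Fin (2 * n) → ZMod 2) ≃ₗ[ZMod 2] (Fin (2 * n) → ZMod 2),
      (∀ v, Q (γ v) = Q v) ∧ (∀ y ∈ D, f (cj p.1 y) = γ (f y)) ∧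
      p.2 = (-1) ^ finrank (ZMod 2) (fix γ.toLinearMap) := by
  have step : ∀ d ∈ D, ∀ q : G × ℤˣ, (∃ γ : (Fin (2 * n) → ZMod 2) ≃ₗ[ZMod 2] (Fin (2 * n) → ZMod 2),
      (∀ v, Q (γ v) = Q v) ∧ (∀ y ∈ D, f (cj q.1 y) = γ (f y)) ∧
      q.2 = (-1) ^ finrank (ZMod 2) (fix γ.toLinearMap)) →
      ∃ γ : (Fin (2 * n) → ZMod 2) ≃ₗ[ZMod 2] (Fin (2 * n) → ZMod 2),
      (∀ v, Q (γ v) = Q v) ∧ (∀ y ∈ D, f (cj (d * q.1) y) = γ (f y)) ∧
      - q.2 = (-1) ^ finrank (ZMod 2) (fix γ.toLinearMap) := by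
    rintro d hd q ⟨γ, h1, h2, h3⟩
    let τ : (Fin (2 * n) → ZMod 2) ≃ₗ[ZMod 2] (Fin (2 * n) → ZMod 2) :=
      LinearEquiv.ofInvolutive (tv Q (f d)) (tv_tv (f d))
    have hτ : ∀ v, τ v = tv Q (f d) v := fun v => rfl
    refine ⟨γ.trans τ, ?_, ?_, ?_⟩
    · intro v
      rw [LinearEquiv.trans_apply, hτ, q_tv (C.one d hd), h1]
    · intro y hy
      rw [cj_mul, f_conj h C hn hd (cj_mem h hy), h2 y hy]
      rfl
    · have h4 := finrank_fix Q C.nondeg γ h1 (C.one d hd) (tv Q (f d)) (fun v => tv_apply _ v)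
      have h5 : (γ.trans τ).toLinearMap = tv Q (f d) ∘ₗ γ.toLinearMap := rfl
      rw [h5]
      rcases h4 with h4 | h4
      · rw [h3, ← h4, pow_succ]
        simp
      · rw [h3, h4, pow_succ]
        simp
  intro p hp
  induction hp using Subgroup.closure_induction_left with
  | one =>
    refine ⟨LinearEquiv.refl _ _, fun v => rfl, fun y _ => ?_, ?_⟩
    · show f (cj 1 y) = f y
      rw [cj_one]
    · have h1 : fix (LinearEquiv.refl (ZMod 2) (Fin (2 * n) → ZMod 2)).toLinearMap = ⊤ := by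
        rw [eq_top_iff]
        intro v _
        rw [mem_fix]
        rfl
      rw [h1, finrank_top, Module.finrank_fin_fun, pow_mul]
      simp
  | mul_left p hp q hq ih =>
    obtain ⟨γ, h1, h2, h3⟩ := step p.1 hp.1 q ih
    refine ⟨γ, h1, h2, ?_⟩
    rw [← h3]
    show p.2 * q.2 = _
    rw [hp.2]
    simp
  | inv_mul_cancel p hp q hq ih =>
    obtain ⟨γ, h1, h2, h3⟩ := step p.1 hp.1 q ih
    refine ⟨γ, h1, ?_, ?_⟩
    · intro y hy
      rw [← h2 y hy]
      show f (cj (p.1⁻¹ * q.1) y) = _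
      rw [h.inv_eq hp.1]
    · rw [← h3]
      show p.2⁻¹ * q.2 = _
      rw [hp.2]
      simp

/-- elements of the commutator subgroup are even words -/
theorem mem_words_of_commutator (hgen : Subgroup.closure D = ⊤) {t : G} (ht : t ∈ commutator G) :
    (t, (1 : ℤˣ)) ∈ words D := by
  have hle : commutator G ≤ (words D).comap (MonoidHom.inl G ℤˣ) := by
    rw [commutator_def, Subgroup.commutator_le]
    intro g _ k _
    obtain ⟨ε, hε⟩ := exists_words hgen g
    obtain ⟨δ, hδ⟩ := exists_words hgen k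
    have h1 := Subgroup.mul_mem _ (Subgroup.mul_mem _ (Subgroup.mul_mem _ hε hδ)
      (Subgroup.inv_mem _ hε)) (Subgroup.inv_mem _ hδ)
    have h2 : (g, ε) * (k, δ) * (g, ε)⁻¹ * (k, δ)⁻¹ = (g * k * g⁻¹ * k⁻¹, (1 : ℤˣ)) := by
      ext
      · rfl
      · show (((ε * δ * ε⁻¹ * δ⁻¹ : ℤˣ)) : ℤ) = 1
        rw [mul_comm ε δ, mul_inv_cancel_right, mul_inv_cancel]
        rfl
    rw [h2] at h1
    exact h1
  exact hle ht

/-- the vectors with `Q = 1` span -/
theorem linear_ext {W : Type*} [AddCommGroup W] [Module (ZMod 2) W] (C : OChart n D Q f) {x a : G} (hx : x ∈ D) (ha : a ∈ D)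
    (hxa : ¬ Commute x a) (φ : (Fin (2 * n) → ZMod 2) →ₗ[ZMod 2] W) (hφ : ∀ v, Q v = 1 → φ v = 0) (v : Fin (2 * n) → ZMod 2) : φ v = 0 := by
  rcases z2_cases (Q v) with hv | hv
  swap
  · exact hφ v hv
  obtain ⟨w, hw, hvw⟩ : ∃ w, Q w = 1 ∧ QuadraticMap.polarBilin Q w v = 0 := by
    have e1 := C.one x hx
    have e2 := C.one a ha
    have e3 : QuadraticMap.polarBilin Q (f x) (f a) = 1 := by
      rw [C.polar_eq hx ha]; exact nc_eq_one.2 hxa
    rcases z2_cases (QuadraticMap.polarBilin Q (f x) v) with h6 | h6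
    · exact ⟨_, e1, h6⟩
    rcases z2_cases (QuadraticMap.polarBilin Q (f a) v) with h7 | h7
    · exact ⟨_, e2, h7⟩
    refine ⟨f x + f a, ?_, ?_⟩
    · rw [q_add, e1, e2, e3]; decide
    · rw [map_add, LinearMap.add_apply, h6, h7]; decide
  have h6 := hφ w hw
  have h7 := hφ (w + v) (by rw [q_add, hw, hv, hvw]; decide)
  rw [map_add, h6, zero_add] at h7
  exact h7

/-- **Parity**: if `t` in the commutator subgroup acts freely then `n` is even -/
theorem even_of_free (h : FData D) (C : OChart n D Q f) (hn : 3 ≤ n) {x a : G} (hx : x ∈ D) (ha : a ∈ D)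
    (hxa : ¬ Commute x a) {t : G} (ht : Free D t) (htc : t ∈ commutator G) : Even n := by
  obtain ⟨γ, h1, h2, h3⟩ := exists_isometry h C hn _ (mem_words_of_commutator h.gen htc)
  simp only at h2 h3
  -- `γ² = 1`
  have hγγ : ∀ v, γ (γ v) = v := by
    have h4 : ∀ v, ((γ.toLinearMap ∘ₗ γ.toLinearMap - LinearMap.id :
        (Fin (2 * n) → ZMod 2) →ₗ[ZMod 2] (Fin (2 * n) → ZMod 2))) v = 0 := by
      apply linear_ext C hx ha hxa
      intro v hv
      obtain ⟨y, hy, rfl⟩ := C.surj v hv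
      show γ (γ (f y)) - f y = 0
      rw [← h2 y hy, ← h2 _ (cj_mem h hy), ← cj_mul, ht.sq, cj_one, sub_self]
    intro v
    exact sub_eq_zero.1 (h4 v)
  -- the fixed space is totally singular
  have hsing : ∀ v ∈ fix γ.toLinearMap, Q v = 0 := by
    intro v hv
    rcases z2_cases (Q v) with hq | hq
    · exact hq
    · exfalso
      obtain ⟨y, hy, rfl⟩ := C.surj v hq
      rw [mem_fix] at hv
      have h5 : γ (f y) = f y := hv
      rw [← h2 y hy] at h5
      have h6 := C.inj _ (cj_mem h hy) _ hy h5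
      exact ht.free y hy (cj_eq_self_iff.1 h6).symm
  have hnd : (QuadraticMap.polarBilin Q).Nondegenerate := by
    have hs : (QuadraticMap.polarBilin Q).IsSymm := ⟨fun x y => polar_symm x y⟩
    rw [hs.isRefl.nondegenerate_iff_separatingLeft]
    intro v hv
    exact C.nondeg v fun v' => hv v'
  have hrefl : (QuadraticMap.polarBilin Q).IsRefl :=
    (show (QuadraticMap.polarBilin Q).IsSymm from ⟨fun x y => polar_symm x y⟩).isRefl
  have h5 := LinearMap.BilinForm.finrank_orthogonal hnd (fix γ.toLinearMap)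
  have h6 : fix γ.toLinearMap ≤
      LinearMap.BilinForm.orthogonal (QuadraticMap.polarBilin Q) (fix γ.toLinearMap) := by
    intro v hv w hw
    have h7 := hsing _ ((fix γ.toLinearMap).add_mem hw hv)
    rw [q_add, hsing w hw, hsing v hv, zero_add, zero_add] at h7
    exact h7
  have h7 := Submodule.finrank_mono h6
  rw [h5, Module.finrank_fin_fun] at h7
  have h8 : LinearMap.range (γ.toLinearMap - LinearMap.id) ≤ fix γ.toLinearMap := by
    rintro _ ⟨v, rfl⟩
    rw [mem_fix]
    show γ (γ v - v) = γ v - v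
    rw [map_sub, hγγ]
    have : ∀ u w : Fin (2 * n) → ZMod 2, u - w = w - u := by
      intro u w
      ext i
      show u i - w i = w i - u i
      generalize u i = a
      generalize w i = b
      revert a b
      decide
    exact this _ _
  have h9 := Submodule.finrank_mono h8
  have h10 := LinearMap.finrank_range_add_finrank_ker (γ.toLinearMap - LinearMap.id)
  rw [Module.finrank_fin_fun] at h10
  have h11 : LinearMap.ker (γ.toLinearMap - LinearMap.id) = fix γ.toLinearMap := rfl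
  rw [h11] at h10
  have h12 : finrank (ZMod 2) (fix γ.toLinearMap) = n := by omega
  rw [h12] at h3
  by_contra hodd
  rw [Nat.not_even_iff_odd] at hodd
  rw [hodd.neg_one_pow] at h3
  exact absurd h3 (by decide)

end General

variable {G : Type u} [Group G] {D : Set G} {L : Subgroup G}

theorem even_of_isO [Finite G] (C : Cfg D L) {d : G} (hd : d ∈ D) {n : ℕ} (hn : 3 ≤ n)
    (h : IsO n (EE D L d)) : Even n := by
  obtain ⟨Q, f, K⟩ := isO_iff.1 h
  obtain ⟨t, ht, htL⟩ := exists_free C hd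
  have fd := fdata_of_class (C.cls hd)
  have htc : t ∈ commutator ↥(HH L d) := by
    rw [C.commutator_eq hd, Subgroup.mem_subgroupOf]
    exact htL
  -- two members which do not commute
  obtain ⟨x, hx, a, ha, hxa⟩ : ∃ x ∈ EE D L d, ∃ a ∈ EE D L d, ¬ Commute x a := by
    by_contra hcon
    push Not at hcon
    set d' : ↥(HH L d) := ⟨d, self_mem_HH L d⟩
    have h1 := fd.mem_center_of_forall_commute (x := d') (fun y hy => hcon d' hd y hy)
    apply fd.ne_one d' hd
    apply Subtype.ext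
    apply C.cent
    intro x hx
    exact (congrArg Subtype.val ((Subgroup.mem_center_iff.1 h1) ⟨x, L_le_HH L d hx⟩)).symm
  exact even_of_free fd K hn hx ha hxa ht htc

theorem not_isO_three [Finite G] (C : Cfg D L) {d : G} (hd : d ∈ D) : ¬ IsO 3 (EE D L d) := by
  intro h
  exact absurd (even_of_isO C hd le_rfl h) (by decide)

end Cfsg.Agent.H807.IdO
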