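import Cfsg.Agent.SporadicStructure.PermFive
import Cfsg.Agent.H346.CoxA

/-!
# Four involutions with the Coxeter relations of type `A₄` generate the symmetric group of degree five

`permFive`: if `x, y, b, a` satisfy the Coxeter relations of type `A₄` and `x y ≠ y x`, then the subgroup generated by
them is isomorphic to `S₅`.
-/

set_option autoImplicit false

namespace Cfsg.Agent.H807.SymFive

open Equiv Cfsg.Agent.SporadicStructure.PermFive

/-- a group generated by four elements with the Coxeter relations of type `A₄`, not all commuting, is `S₅` -/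
theorem permFive_top {G : Type*} [Group G] {x y b a : G} (h : Cox x y b a) (hne : x * y ≠ y * x)
    (hgen : Subgroup.closure {x, y, b, a} = (⊤ : Subgroup G)) : Nonempty (G ≃* Perm (Fin 5)) := by
  choose f hf using exists_perm h hgen
  let F : G →* Perm (Fin 5) :=
    { toFun := f
      map_one' := acts_unique h hne (hf 1) Acts.one
      map_mul' := fun u v => acts_unique h hne (hf (u * v)) ((hf u).mul (hf v)) }
  have hsurj : Function.Surjective F := by
    intro σ
    obtain ⟨g, hg⟩ := exists_elt h σ
    exact ⟨g, acts_unique h hne (hf g) hg⟩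
  let s : ℕ → G := fun i => if i = 0 then x else if i = 1 then y else if i = 2 then b else a
  have hs : H346.CoxA.Rel 4 s := by
    refine ⟨?_, ?_, ?_⟩
    · intro i hi
      interval_cases i
      · exact h.xx
      · exact h.yy
      · exact h.bb
      · exact h.aa
    · intro i hi
      have hi' : i < 3 := by omega
      interval_cases i
      · exact h.yxy.symm
      · exact h.byb.symm
      · exact h.aba.symm
    · intro i j hij hj
      have : (i = 0 ∧ j = 2) ∨ (i = 0 ∧ j = 3) ∨ (i = 1 ∧ j = 3) := by omega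
      rcases this with ⟨rfl, rfl⟩ | ⟨rfl, rfl⟩ | ⟨rfl, rfl⟩
      · exact h.bx.symm
      · exact h.ax.symm
      · exact h.ay.symm
  obtain ⟨hfin, hcard⟩ := H346.CoxA.Rel.card_H 4 s hs
  have htop : H346.CoxA.Rel.H 4 s = ⊤ := by
    rw [eq_top_iff, ← hgen, Subgroup.closure_le]
    rintro z (rfl | rfl | rfl | rfl)
    · exact H346.CoxA.Rel.mem_H (s := s) (i := 0) (by norm_num)
    · exact H346.CoxA.Rel.mem_H (s := s) (i := 1) (by norm_num)
    · exact H346.CoxA.Rel.mem_H (s := s) (i := 2) (by norm_num)
    · exact H346.CoxA.Rel.mem_H (s := s) (i := 3) (by norm_num)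
  rw [htop] at hfin hcard
  have hfinG : Finite G := Finite.of_equiv _ (Subgroup.topEquiv (G := G)).toEquiv
  have hc : Nat.card G ≤ Nat.card (Perm (Fin 5)) := by
    rw [Nat.card_perm, Nat.card_fin, ← Nat.card_congr (Subgroup.topEquiv (G := G)).toEquiv]
    exact hcard
  have hbij : Function.Bijective F :=
    (Nat.bijective_iff_surjective_and_card F).2
      ⟨hsurj, le_antisymm hc (Nat.card_le_card_of_surjective F hsurj)⟩
  exact ⟨MulEquiv.ofBijective F hbij⟩

/-- **four involutions with the Coxeter relations of type `A₄`** -/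
theorem permFive {G : Type*} [Group G] {x y b a : G} (h : Cox x y b a) (hne : x * y ≠ y * x) :
    Nonempty (Subgroup.closure {x, y, b, a} ≃* Perm (Fin 5)) := by
  set K := Subgroup.closure {x, y, b, a} with hK
  have hx : x ∈ K := Subgroup.subset_closure (by simp)
  have hy : y ∈ K := Subgroup.subset_closure (by simp)
  have hb : b ∈ K := Subgroup.subset_closure (by simp)
  have ha : a ∈ K := Subgroup.subset_closure (by simp)
  have h' : Cox (⟨x, hx⟩ : K) ⟨y, hy⟩ ⟨b, hb⟩ ⟨a, ha⟩ :=
    { xx := Subtype.ext h.xx
      yy := Subtype.ext h.yy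
      bb := Subtype.ext h.bb
      aa := Subtype.ext h.aa
      bx := Subtype.ext h.bx
      ax := Subtype.ext h.ax
      ay := Subtype.ext h.ay
      yxy := Subtype.ext h.yxy
      byb := Subtype.ext h.byb
      aba := Subtype.ext h.aba }
  refine permFive_top h' (fun h0 => hne (congrArg Subtype.val h0)) ?_
  rw [eq_top_iff]
  intro z _
  have hz : (z : G) ∈ (Subgroup.closure {(⟨x, hx⟩ : K), ⟨y, hy⟩, ⟨b, hb⟩, ⟨a, ha⟩}).map K.subtype := by
    rw [MonoidHom.map_closure]
    have e : (K.subtype : K → G) '' {(⟨x, hx⟩ : K), ⟨y, hy⟩, ⟨b, hb⟩, ⟨a, ha⟩} = {x, y, b, a} := by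
      simp [Set.image_insert_eq]
    rw [e]
    exact z.2
  obtain ⟨w, hw, hwz⟩ := hz
  have : w = z := Subtype.ext hwz
  rwa [← this]

end Cfsg.Agent.H807.SymFive
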