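import Mathlib
import Cfsg.Agent.S1265
import Cfsg.Agent.H805.PrimSimple
import Cfsg.Agent.H805.Width
import Cfsg.Agent.Fischer480.Defs

/-!
# Classes of 3-transpositions with disconnected commuting graph: the set-up

`D` is a class of 3-transpositions of `G`, `Z(G) = O₂(G) = O₃(G) = 1`, `L = F*(G)` is simple, and not all products of
two members of `D` lie in `L`. For `d ∈ D` the group `H = L⟨d⟩` with `E = D ∩ H` satisfies the hypotheses of
Fischer's theorem.
-/

set_option autoImplicit false

namespace Cfsg.Agent.H807.Tri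

open Cfsg Cfsg.Agent.SporadicB.ThreeTrans Cfsg.Agent.ThreeTrans375.Basic Cfsg.Agent.H805.Base
  Cfsg.Agent.H805.Comp Cfsg.Agent.H805.Index

open scoped commutatorElement

universe u

variable {G : Type u} [Group G] {D : Set G}

/-- the situation -/
structure Cfg (D : Set G) (L : Subgroup G) : Prop where
  hD : IsThreeTranspositionClass D
  hL : IsComponent L
  hLn : L.Normal
  simple : IsSimpleGroup L
  na : ∃ x ∈ L, ∃ y ∈ L, x * y ≠ y * x
  cent : ∀ g : G, (∀ x ∈ L, g * x = x * g) → g = 1
  out : ∃ x ∈ D, ∃ y ∈ D, x * y ∉ L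

/-- the set-up holds under the hypotheses of the theorem -/
theorem exists_cfg [Finite G] (hD : IsThreeTranspositionClass D) (hZ : Subgroup.center G = ⊥)
    (h2 : pCore 2 G = ⊥) (h3 : pCore 3 G = ⊥) (hdisc : ¬ (commutingGraph D).Connected) :
    Cfg D (generalizedFittingSubgroup G) := by
  -- `D` has at least two members
  have hD2 : ∃ a ∈ D, ∃ b ∈ D, a ≠ b := by
    by_contra hcon
    push Not at hcon
    apply hdisc
    obtain ⟨d, hd, -⟩ := hD.2.1
    have hne : Nonempty D := ⟨⟨d, hd⟩⟩
    refine ⟨?_⟩
    intro x y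
    have : x = y := Subtype.ext (hcon x x.2 y y.2)
    rw [this]
  have h2' : pCore 2 G ≤ Subgroup.center G := by rw [h2]; exact bot_le
  have h3' : pCore 3 G ≤ Subgroup.center G := by rw [h3]; exact bot_le
  obtain ⟨L, hLn, hL, hF⟩ := structure_thm hD hD2 h2' h3'
  rw [hZ, sup_bot_eq] at hF
  rw [hF]
  have hZL : Subgroup.center L = ⊥ := by
    have h4 : (Subgroup.center L).map L.subtype ≤ Subgroup.center G := by
      have hn : ((Subgroup.center L).map L.subtype).Normal := inferInstance
      apply solvable_le_center hD h2' h3' hn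
      have hs : Group.IsSolvable (Subgroup.center L) :=
        Group.isSolvable_of_comm fun a b => Subtype.ext ((Subgroup.mem_center_iff.1 b.2) a)
      exact SignalizersComponents.ComponentExists.isSolvable_map hs _
    rw [hZ, le_bot_iff, Subgroup.map_eq_bot_iff_of_injective _ L.subtype_injective] at h4
    exact h4
  have hLs : IsSimpleGroup L := by
    have h5 := hL.2.2
    have e : L ⧸ Subgroup.center L ≃* L :=
      (QuotientGroup.quotientMulEquivOfEq hZL).trans (QuotientGroup.quotientBot (G := L))
    have hnt : Nontrivial L := SignalizersComponents.Components.quasisimple_nontrivial hL.2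
    exact IsSimpleGroup.isSimpleGroup_of_surjective (f := e.toMonoidHom) e.surjective
  have hna : ∃ x ∈ L, ∃ y ∈ L, x * y ≠ y * x := by
    by_contra hcon
    push Not at hcon
    apply SignalizersComponents.Components.quasisimple_not_isSolvable hL.2
    exact Group.isSolvable_of_comm fun a b => Subtype.ext (hcon a a.2 b b.2)
  refine ⟨hD, hL, hLn, hLs, hna, ?_, ?_⟩
  · intro g hg
    have hgL : g ∈ L := by
      have h5 := Cfsg.Agent.S1265.result (G := G)
      rw [hF] at h5
      apply h5
      rw [Subgroup.mem_centralizer_iff]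
      intro x hx
      exact (hg x hx).symm
    have h6 : (⟨g, hgL⟩ : L) ∈ Subgroup.center L := by
      rw [Subgroup.mem_center_iff]
      intro x
      exact Subtype.ext (hg x x.2).symm
    rw [hZL, Subgroup.mem_bot] at h6
    exact congrArg Subtype.val h6
  · by_contra hcon
    push Not at hcon
    -- then `G' = L` is simple and the commuting graph is connected
    have hi : L.index ≤ 2 := index_le_two hD hLn hcon
    have hw : ∃ a ∈ D, ∃ b ∈ D, a ≠ b ∧ Commute a b := by
      obtain ⟨d, hd, -⟩ := hD.2.1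
      obtain ⟨x, hx, h7, h8⟩ := exists_two hD hL hd
      have hxd : x * d * x⁻¹ ∈ D := conjClosed_of_class hD x d hd
      refine ⟨d, hd, x * d * x⁻¹, hxd, ?_, ?_⟩
      · intro h9
        apply h8
        rw [← h9]
        exact mul_self hD.1 hd
      · exact H805.Width.commute_of_sq hD.1 hd hxd h7
    have hle : commutator G ≤ L := by
      have hcomm : ∀ u v : G ⧸ L, u * v = v * u :=
        H805.Prim.comm_of_card_le (by rw [← Subgroup.index_eq_card]; exact hi)
      rw [commutator_def, Subgroup.commutator_le]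
      intro g _ h _
      rw [← QuotientGroup.eq_one_iff]
      show QuotientGroup.mk' L ⁅g, h⁆ = 1
      rw [map_commutatorElement, commutatorElement_eq_one_iff_mul_comm]
      exact hcomm _ _
    have hge : L ≤ commutator G := by
      rw [← SignalizersComponents.Components.component_commutator_self hL, commutator_def]
      exact Subgroup.commutator_mono le_top le_top
    have hsimp : IsSimpleGroup (commutator G) := by
      rw [le_antisymm hle hge]
      exact hLs
    have hmain := H805.PrimSimple.main hD hZ hw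
    exact hdisc ((hmain.2.1 (hmain.1.1 hsimp)).2.2)


/-! ### The group `L⟨d⟩` -/

section Local

variable {L : Subgroup G}

/-- the subgroup `L⟨d⟩` -/
def HH (L : Subgroup G) (d : G) : Subgroup G := L ⊔ Subgroup.zpowers d

/-- the members of `D` in `L⟨d⟩` -/
def EE (D : Set G) (L : Subgroup G) (d : G) : Set ↥(HH L d) := {x | (x : G) ∈ D}

theorem mem_EE {d : G} {x : ↥(HH L d)} : x ∈ EE D L d ↔ (x : G) ∈ D := Iff.rfl

theorem L_le_HH (L : Subgroup G) (d : G) : L ≤ HH L d := le_sup_left

theorem self_mem_HH (L : Subgroup G) (d : G) : d ∈ HH L d :=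
  (le_sup_right : Subgroup.zpowers d ≤ HH L d) (Subgroup.mem_zpowers d)

variable (C : Cfg D L)
include C

theorem Cfg.hE : IsThreeTranspositionSet D := C.hD.1

theorem Cfg.hC : ConjClosed D := conjClosed_of_class C.hD

/-- no member of `D` lies in `L` -/
theorem Cfg.not_mem {d : G} (hd : d ∈ D) : d ∉ L := by
  intro h
  obtain ⟨x, hx, y, hy, hxy⟩ := C.out
  have key : ∀ z ∈ D, z ∈ L := by
    intro z hz
    obtain ⟨g, rfl⟩ := exists_conj_of_class C.hD hd hz
    exact C.hLn.conj_mem d h g
  exact hxy (L.mul_mem (key x hx) (key y hy))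

theorem Cfg.mem_HH {d : G} (hd : d ∈ D) {g : G} : g ∈ HH L d ↔ g ∈ L ∨ g * d ∈ L := by
  have hn := C.hLn
  constructor
  · intro h
    rw [HH, Subgroup.mem_sup_of_normal_left] at h
    obtain ⟨x, hx, y, hy, rfl⟩ := h
    obtain ⟨k, rfl⟩ := Subgroup.mem_zpowers_iff.1 hy
    have hdd : d ^ (2 : ℤ) = 1 := by rw [zpow_ofNat, pow_two, mul_self C.hE hd]
    rcases Int.even_or_odd' k with ⟨m, rfl | rfl⟩
    · left
      rw [zpow_mul, hdd, one_zpow, mul_one]
      exact hx
    · right
      rw [zpow_add, zpow_mul, hdd, one_zpow, one_mul, zpow_one, mul_assoc, mul_self C.hE hd,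
        mul_one]
      exact hx
  · rintro (h | h)
    · exact L_le_HH L d h
    · have h1 : g = (g * d) * d := by rw [mul_assoc, mul_self C.hE hd, mul_one]
      rw [h1]
      exact (HH L d).mul_mem (L_le_HH L d h) (self_mem_HH L d)

/-- members of `D` in `L⟨d⟩` are congruent to `d` modulo `L` -/
theorem Cfg.mul_mem {d x : G} (hd : d ∈ D) (hx : x ∈ D) (h : x ∈ HH L d) : x * d ∈ L :=
  ((C.mem_HH hd).1 h).resolve_left (C.not_mem hx)

/-- two members of `D` which commute are congruent modulo `L` -/
theorem Cfg.mul_mem_of_commute [Finite G] {x y : G} (hx : x ∈ D) (hy : y ∈ D) (h : Commute x y) :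
    x * y ∈ L := by
  apply H805.Comp.mul_mem_of_commute C.hD C.hL hx hy
  rw [h.eq, mul_assoc y, mul_inv_cancel, mul_one, mul_inv_cancel]
  exact L.one_mem

theorem Cfg.perfect : ⁅L, L⁆ = L :=
  SignalizersComponents.Components.component_commutator_self C.hL

/-- a normal subgroup of `L` (as a subgroup of `G` normalised by `L`) is trivial or `L` -/
theorem Cfg.normal_cases {M : Subgroup G} (hM : ∀ x ∈ L, ∀ m ∈ M, x * m * x⁻¹ ∈ M) :
    M ⊓ L = ⊥ ∨ L ≤ M := by
  have h1 : ((M ⊓ L).subgroupOf L).Normal := by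
    refine ⟨fun m hm g => ?_⟩
    rw [Subgroup.mem_subgroupOf] at hm ⊢
    exact ⟨hM g g.2 m hm.1, L.mul_mem (L.mul_mem g.2 hm.2) (L.inv_mem g.2)⟩
  have := C.simple
  rcases IsSimpleGroup.eq_bot_or_eq_top_of_normal _ h1 with h2 | h2
  · left
    rw [Subgroup.subgroupOf_eq_bot] at h2
    rw [eq_bot_iff]
    intro x hx
    exact (disjoint_iff.1 h2).le ⟨hx, hx.2⟩
  · right
    rw [Subgroup.subgroupOf_eq_top] at h2
    exact h2.trans inf_le_left

/-- a subgroup normalised by `L` which is not centralised by `L` contains `L` -/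
theorem Cfg.le_of_normalises {M : Subgroup G} (hM : ∀ x ∈ L, ∀ m ∈ M, x * m * x⁻¹ ∈ M)
    {m : G} (hm : m ∈ M) (hm1 : m ≠ 1) : L ≤ M := by
  rcases C.normal_cases hM with h | h
  · exfalso
    apply hm1
    apply C.cent
    intro x hx
    have h1 : m * x * m⁻¹ * x⁻¹ ∈ M ⊓ L := by
      constructor
      · have h2 := M.mul_mem hm (hM x hx m⁻¹ (M.inv_mem hm))
        have e : m * (x * m⁻¹ * x⁻¹) = m * x * m⁻¹ * x⁻¹ := by group
        rwa [e] at h2
      · exact L.mul_mem (C.hLn.conj_mem x hx m) (L.inv_mem hx)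
    rw [h, Subgroup.mem_bot] at h1
    have h3 : m * x * m⁻¹ = x := by
      calc m * x * m⁻¹ = (m * x * m⁻¹ * x⁻¹) * x := by group
        _ = x := by rw [h1, one_mul]
    calc m * x = (m * x * m⁻¹) * m := by group
      _ = x * m := by rw [h3]
  · exact h

theorem Cfg.EE_set {d : G} : IsThreeTranspositionSet (EE D L d) := by
  refine ⟨fun x hx => ?_, fun x hx y hy => ?_⟩
  · rw [← C.hE.1 _ hx, Subgroup.orderOf_coe]
  · rcases C.hE.2 _ hx _ hy with h | h
    · exact Or.inl (Subtype.ext h)
    · exact Or.inr (Subtype.ext h)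

theorem Cfg.EE_conj {d : G} (g : ↥(HH L d)) {x : ↥(HH L d)} (hx : x ∈ EE D L d) :
    g * x * g⁻¹ ∈ EE D L d := C.hC (g : G) x hx

theorem Cfg.cls {d : G} (hd : d ∈ D) : IsThreeTranspositionClass (EE D L d) := by
  have hset := C.EE_set (d := d)
  set d' : ↥(HH L d) := ⟨d, self_mem_HH L d⟩ with hd'
  have hd'E : d' ∈ EE D L d := hd
  -- the group generated by the class of `d` contains `L`
  have hle : ∀ x ∈ L, x ∈ (Subgroup.closure (conjugatesOf d')).map (HH L d).subtype := by
    have h1 : L ≤ (Subgroup.closure (conjugatesOf d')).map (HH L d).subtype := by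
      apply C.le_of_normalises (m := d)
      · rintro x hx _ ⟨m, hm, rfl⟩
        have hn : (Subgroup.closure (conjugatesOf d')).Normal := by
          have h2 : Subgroup.closure (conjugatesOf d') = Subgroup.normalClosure {d'} := by
            rw [Subgroup.normalClosure, Group.conjugatesOfSet]
            simp
          rw [h2]
          infer_instance
        exact ⟨⟨x, L_le_HH L d hx⟩ * m * ⟨x, L_le_HH L d hx⟩⁻¹, hn.conj_mem m hm _, rfl⟩
      · exact ⟨d', Subgroup.subset_closure (mem_conjugatesOf_self), rfl⟩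
      · intro h
        have h2 := C.hE.1 d hd
        rw [h, orderOf_one] at h2
        exact absurd h2 (by norm_num)
    exact fun x hx => h1 hx
  have hclass : EE D L d = conjugatesOf d' := by
    apply Set.Subset.antisymm
    · intro e he
      by_contra hne
      -- `e` commutes with all the conjugates of `d`
      have hcomm : ∀ k ∈ conjugatesOf d', Commute e k := by
        intro k hk
        have hkE : k ∈ EE D L d := by
          have hk' : IsConj d' k := hk
          obtain ⟨g, rfl⟩ := isConj_iff.1 hk'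
          exact C.EE_conj g hd'E
        by_contra hc
        apply hne
        have h3 := conj_of_not_commute hset hkE he (fun h4 => hc h4.symm)
        have h4 : IsConj k e := isConj_iff.2 ⟨_, h3⟩
        have hk' : IsConj d' k := hk
        exact hk'.trans h4
      have h5 : (e : G) = 1 := by
        apply C.cent
        intro x hx
        obtain ⟨m, hm, rfl⟩ := hle x hx
        have h6 : Subgroup.closure (conjugatesOf d') ≤ Subgroup.centralizer ({e} : Set ↥(HH L d)) := by
          rw [Subgroup.closure_le]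
          intro k hk
          rw [SetLike.mem_coe, Subgroup.mem_centralizer_iff]
          rintro _ rfl
          exact hcomm k hk
        exact congrArg Subtype.val ((Subgroup.mem_centralizer_iff.1 (h6 hm)) e rfl)
      have h7 := C.hE.1 _ he
      rw [h5, orderOf_one] at h7
      exact absurd h7 (by norm_num)
    · intro k hk
      have hk' : IsConj d' k := hk
      obtain ⟨g, rfl⟩ := isConj_iff.1 hk'
      exact C.EE_conj g hd'E
  refine ⟨hset, ⟨d', hd'E, hclass⟩, ?_⟩
  rw [hclass, eq_top_iff]
  rintro ⟨g, hg⟩ -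
  have hLM : ∀ x (hx : x ∈ L), (⟨x, L_le_HH L d hx⟩ : ↥(HH L d)) ∈ Subgroup.closure (conjugatesOf d') := by
    intro x hx
    obtain ⟨m, hm, hmx⟩ := hle x hx
    have : m = ⟨x, L_le_HH L d hx⟩ := Subtype.ext hmx
    rwa [this] at hm
  rcases (C.mem_HH hd).1 hg with h | h
  · exact hLM g h
  · have h1 : (⟨g, hg⟩ : ↥(HH L d)) = ⟨g * d, L_le_HH L d h⟩ * d' := by
      apply Subtype.ext
      show g = g * d * d
      rw [mul_assoc, mul_self C.hE hd, mul_one]
    rw [h1]
    exact Subgroup.mul_mem _ (hLM _ h) (Subgroup.subset_closure mem_conjugatesOf_self)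

/-- the commutator subgroup of `L⟨d⟩` is `L` -/
theorem Cfg.commutator_eq {d : G} (hd : d ∈ D) : commutator ↥(HH L d) = L.subgroupOf (HH L d) := by
  apply le_antisymm
  · rw [commutator_def, Subgroup.commutator_le]
    intro g _ h _
    rw [Subgroup.mem_subgroupOf]
    show (g : G) * h * (g : G)⁻¹ * (h : G)⁻¹ ∈ L
    have hn := C.hLn
    have hq : ∀ x : G, x ∈ L ↔ (QuotientGroup.mk' L) x = 1 := by
      intro x; rw [← MonoidHom.mem_ker, QuotientGroup.ker_mk']
    have hcase : ∀ x : ↥(HH L d), QuotientGroup.mk' L (x : G) = 1 ∨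
        QuotientGroup.mk' L (x : G) = (QuotientGroup.mk' L d)⁻¹ := by
      intro x
      rcases (C.mem_HH hd).1 x.2 with h1 | h1
      · exact Or.inl ((hq _).1 h1)
      · right
        have h2 := (hq _).1 h1
        rw [map_mul] at h2
        exact eq_inv_of_mul_eq_one_left h2
    rw [hq]
    rw [map_mul, map_mul, map_mul, map_inv, map_inv]
    rcases hcase g with h1 | h1 <;> rcases hcase h with h2 | h2 <;> rw [h1, h2] <;> group
  · have h1 : L = (L.subgroupOf (HH L d)).map (HH L d).subtype := by
      rw [Subgroup.subgroupOf_map_subtype, inf_eq_left.2 (L_le_HH L d)]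
    have h2 : (⁅L.subgroupOf (HH L d), L.subgroupOf (HH L d)⁆).map (HH L d).subtype = L := by
      rw [Subgroup.map_commutator, ← h1, C.perfect]
    intro x hx
    have h3 : (x : G) ∈ (⁅L.subgroupOf (HH L d), L.subgroupOf (HH L d)⁆).map (HH L d).subtype := by
      rw [h2]; exact hx
    obtain ⟨y, hy, hyx⟩ := h3
    have h4 : y = x := Subtype.ext hyx
    rw [h4] at hy
    rw [commutator_def]
    exact Subgroup.commutator_mono le_top le_top hy

theorem Cfg.fgroup [Finite G] {d : G} (hd : d ∈ D) : Fischer480.Defs.FGroup (EE D L d) := by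
  refine ⟨C.cls hd, ?_, ?_⟩
  · intro N hN hs
    by_contra hne
    obtain ⟨m, hm, hm1⟩ : ∃ m : ↥(HH L d), m ∈ N ∧ m ≠ 1 := by
      by_contra hcon
      push Not at hcon
      apply hne
      rw [eq_bot_iff]
      intro x hx
      exact hcon x hx
    have hle : L ≤ N.map (HH L d).subtype := by
      apply C.le_of_normalises (m := (m : ↥(HH L d)))
      · rintro x hx _ ⟨y, hy, rfl⟩
        exact ⟨⟨x, L_le_HH L d hx⟩ * y * ⟨x, L_le_HH L d hx⟩⁻¹, hN.conj_mem y hy _, rfl⟩
      · exact ⟨m, hm, rfl⟩
      · intro h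
        exact hm1 (Subtype.ext h)
    have hs1 : Group.IsSolvable ↥(N.map (HH L d).subtype) :=
      SignalizersComponents.ComponentExists.isSolvable_map hs _
    have hs2 : Group.IsSolvable ↥L :=
      Group.isSolvable_of_isSolvable_injective (Subgroup.inclusion_injective hle)
    exact SignalizersComponents.Components.quasisimple_not_isSolvable C.hL.2 hs2
  · rw [C.commutator_eq hd]
    have h1 : L = (L.subgroupOf (HH L d)).map (HH L d).subtype := by
      rw [Subgroup.subgroupOf_map_subtype, inf_eq_left.2 (L_le_HH L d)]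
    have h2 : (⁅L.subgroupOf (HH L d), L.subgroupOf (HH L d)⁆).map (HH L d).subtype =
        (L.subgroupOf (HH L d)).map (HH L d).subtype := by
      rw [Subgroup.map_commutator, ← h1, C.perfect]
    exact Subgroup.map_injective (HH L d).subtype_injective h2

/-! ### Products of two members of another block -/

/-- `t` acts on `E` without fixed points and moves every member to a commuting one -/
structure Free {H : Type u} [Group H] (E : Set H) (t : H) : Prop where
  sq : t * t = 1
  free : ∀ a ∈ E, ¬ Commute a t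
  comm : ∀ a ∈ E, Commute a (t * a * t⁻¹)

theorem Cfg.exists_other {d : G} (hd : d ∈ D) : ∃ y ∈ D, y * d ∉ L := by
  by_contra hcon
  push Not at hcon
  obtain ⟨x, hx, y, hy, hxy⟩ := C.out
  apply hxy
  have h1 := L.mul_mem (hcon x hx) (L.inv_mem (hcon y hy))
  have e : x * d * (y * d)⁻¹ = x * y := by
    rw [mul_inv_rev, inv_eq C.hE hd, inv_eq C.hE hy]
    calc x * d * (d * y) = x * (d * d) * y := by simp only [mul_assoc]
      _ = x * y := by rw [mul_self C.hE hd, mul_one]
  rwa [e] at h1

/-- the product of two distinct commuting members in another coset moves each member of `D ∩ L⟨d⟩` to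
a different commuting one -/
theorem Cfg.free [Finite G] {d y z z' a : G} (hd : d ∈ D) (hy : y ∈ D) (hyd : y * d ∉ L)
    (hz : z ∈ D) (hz' : z' ∈ D) (hzy : z * y ∈ L) (hzy' : z' * y ∈ L) (hne : z ≠ z')
    (hcomm : Commute z z') (ha : a ∈ D) (had : a * d ∈ L) :
    ¬ Commute a (z * z') ∧ Commute a ((z * z') * a * (z * z')⁻¹) := by
  have hE := C.hE
  have hn := C.hLn
  have key : ∀ b ∈ D, b * d ∈ L → ¬ Commute b (z * z') := by
    intro b hb hbd h
    have h1 := ((commute_mul_iff hE hz hz' hb hne hcomm).1 h).1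
    have h2 := C.mul_mem_of_commute hb hz h1
    apply hyd
    -- `y d = (z y)⁻¹ (b z)⁻¹ (b d)` up to conjugation: work modulo `L`
    have hq : ∀ x : G, x ∈ L ↔ (QuotientGroup.mk' L) x = 1 := by
      intro x; rw [← MonoidHom.mem_ker, QuotientGroup.ker_mk']
    rw [hq, map_mul] at hbd h2 hzy ⊢
    have e1 := eq_inv_of_mul_eq_one_left hbd
    have e2 := eq_inv_of_mul_eq_one_left h2
    have e3 := eq_inv_of_mul_eq_one_right hzy
    have hz2 : (QuotientGroup.mk' L) z * (QuotientGroup.mk' L) z = 1 := by
      rw [← map_mul, mul_self hE hz, map_one]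
    have hd2 : (QuotientGroup.mk' L) d * (QuotientGroup.mk' L) d = 1 := by
      rw [← map_mul, mul_self hE hd, map_one]
    have e4 : (QuotientGroup.mk' L) d = (QuotientGroup.mk' L) z := by
      have := e1.symm.trans e2
      exact inv_injective this
    rw [e3, e4, inv_mul_cancel]
  refine ⟨key a ha had, ?_⟩
  by_contra hnc
  -- conjugation by `t` as an automorphism
  set t := z * z' with ht
  have htt : t * t = 1 := by
    calc t * t = z * (z' * z) * z' := by simp only [ht, mul_assoc]
      _ = z * (z * z') * z' := by rw [hcomm.eq]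
      _ = (z * z) * (z' * z') := by simp only [mul_assoc]
      _ = 1 := by rw [mul_self hE hz, mul_self hE hz', one_mul]
  have htD : t * a * t⁻¹ ∈ D := C.hC t a ha
  have hti : t⁻¹ = t := inv_eq_of_mul_eq_one_left htt
  have htL : t ∈ L := by
    have h1 := L.mul_mem hzy (L.inv_mem hzy')
    have e : z * y * (z' * y)⁻¹ = t := by
      rw [mul_inv_rev, inv_eq hE hy, inv_eq hE hz']
      calc z * y * (y * z') = z * (y * y) * z' := by simp only [mul_assoc]
        _ = t := by rw [mul_self hE hy, mul_one]
    rwa [e] at h1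
  have hb := braid hE ha htD hnc
  -- the third point is fixed
  set b := a * (t * a * t⁻¹) * a with hbdef
  have hbD : b ∈ D := third_mem hE C.hC ha htD
  have hbd : b * d ∈ L := by
    have e : b * d = a * (t * a * t⁻¹ * a) * a⁻¹ * (a * a * (a * d)) := by
      rw [hbdef, mul_self hE ha, one_mul, inv_eq hE ha]
      calc a * (t * a * t⁻¹) * a * d = a * (t * a * t⁻¹) * a * d := rfl
        _ = a * (t * a * t⁻¹) * (a * a) * a * d := by rw [mul_self hE ha, mul_one]
        _ = a * (t * a * t⁻¹ * a) * a * (a * d) * 1 := by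
            rw [mul_one]
            have : a * (t * a * t⁻¹ * a) * a * (a * d) = a * (t * a * t⁻¹) * (a * a) * a * d := by
              simp only [mul_assoc]
            rw [this]
        _ = _ := by rw [mul_one]
    rw [e]
    refine L.mul_mem (hn.conj_mem _ ?_ a) ?_
    · have e2 : t * a * t⁻¹ * a = t * (a * t⁻¹ * a⁻¹) := by
        rw [inv_eq hE ha]; simp only [mul_assoc]
      rw [e2]
      exact L.mul_mem htL (hn.conj_mem _ (L.inv_mem htL) a)
    · rw [mul_self hE ha, one_mul]; exact had
  apply key b hbD hbd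
  have h3 : t * b * t⁻¹ = b := by
    calc t * b * t⁻¹ = (t * a * t⁻¹) * (t * t) * a * (t⁻¹ * t⁻¹) * (t * a * t⁻¹) := by
          rw [hbdef]
          simp only [mul_assoc, inv_mul_cancel_left, mul_inv_cancel_left]
      _ = (t * a * t⁻¹) * a * (t * a * t⁻¹) := by
          rw [hti, htt, mul_one, mul_one]
      _ = b := by rw [← hb]
  exact (conj_eq_self_iff.1 h3).symm

/-- a family of commuting members gives a family of elements with free quotients -/
theorem Cfg.exists_family [Finite G] {d : G} (hd : d ∈ D) {w : ℕ} (x : Fin w → ↥(HH L d))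
    (hx : ∀ i, x i ∈ EE D L d) (hinj : Function.Injective x) (hcomm : ∀ i j, Commute (x i) (x j)) :
    ∃ τ : Fin w → ↥(HH L d), (∀ i j, i ≠ j → Free (EE D L d) ((τ i)⁻¹ * τ j)) ∧
      (∀ i j, Commute (τ i) (τ j)) ∧ (∀ i, τ i * τ i = 1) ∧ ∀ i, (τ i : G) ∈ L := by
  have hE := C.hE
  rcases Nat.eq_zero_or_pos w with rfl | hw
  · exact ⟨fun i => i.elim0, fun i => i.elim0, fun i => i.elim0, fun i => i.elim0, fun i => i.elim0⟩
  obtain ⟨y, hy, hyd⟩ := C.exists_other hd
  obtain ⟨g, hg⟩ := exists_conj_of_class C.hD hd hy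
  let z : Fin w → G := fun i => g * x i * g⁻¹
  have hzD : ∀ i, z i ∈ D := fun i => C.hC g _ (hx i)
  have hzy : ∀ i, z i * y ∈ L := by
    intro i
    have h1 := C.hLn.conj_mem _ (C.mul_mem hd (hx i) (x i).2) g
    have e : g * ((x i : G) * d) * g⁻¹ = z i * y := by
      rw [← hg]
      show _ = g * x i * g⁻¹ * (g * d * g⁻¹)
      group
    rwa [e] at h1
  have hzc : ∀ i j, Commute (z i) (z j) := fun i j =>
    (commute_conj_iff g).2 (congrArg Subtype.val (hcomm i j))
  have hzne : ∀ i j, i ≠ j → z i ≠ z j := by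
    intro i j hij h
    apply hij
    apply hinj
    exact Subtype.ext (mul_left_cancel (mul_right_cancel h))
  have hzL : ∀ i j, z i * z j ∈ L := by
    intro i j
    have h1 := L.mul_mem (hzy i) (L.inv_mem (hzy j))
    have e : z i * y * (z j * y)⁻¹ = z i * z j := by
      rw [mul_inv_rev, inv_eq hE hy, inv_eq hE (hzD j)]
      calc z i * y * (y * z j) = z i * (y * y) * z j := by simp only [mul_assoc]
        _ = z i * z j := by rw [mul_self hE hy, mul_one]
    rwa [e] at h1
  let i0 : Fin w := ⟨0, hw⟩
  have hzz : ∀ i, z i * z i = 1 := fun i => mul_self hE (hzD i)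
  refine ⟨fun i => ⟨z i0 * z i, L_le_HH L d (hzL i0 i)⟩, ?_, ?_, ?_, fun i => hzL i0 i⟩
  · intro i j hij
    have e : (⟨z i0 * z i, L_le_HH L d (hzL i0 i)⟩ : ↥(HH L d))⁻¹ *
        ⟨z i0 * z j, L_le_HH L d (hzL i0 j)⟩ = ⟨z i * z j, L_le_HH L d (hzL i j)⟩ := by
      apply Subtype.ext
      show (z i0 * z i)⁻¹ * (z i0 * z j) = z i * z j
      rw [mul_inv_rev, inv_eq hE (hzD i), inv_eq hE (hzD i0)]
      calc z i * z i0 * (z i0 * z j) = z i * (z i0 * z i0) * z j := by simp only [mul_assoc]
        _ = z i * z j := by rw [hzz, mul_one]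
    rw [e]
    refine ⟨?_, ?_, ?_⟩
    · apply Subtype.ext
      show z i * z j * (z i * z j) = 1
      calc z i * z j * (z i * z j) = z i * (z j * z i) * z j := by simp only [mul_assoc]
        _ = z i * (z i * z j) * z j := by rw [(hzc i j).eq]
        _ = (z i * z i) * (z j * z j) := by simp only [mul_assoc]
        _ = 1 := by rw [hzz, hzz, one_mul]
    · intro a ha h
      exact (C.free hd hy hyd (hzD i) (hzD j) (hzy i) (hzy j) (hzne i j hij) (hzc i j) ha
        (C.mul_mem hd ha a.2)).1 (congrArg Subtype.val h)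
    · intro a ha
      exact Subtype.ext (C.free hd hy hyd (hzD i) (hzD j) (hzy i) (hzy j) (hzne i j hij) (hzc i j) ha
        (C.mul_mem hd ha a.2)).2
  · intro i j
    apply Subtype.ext
    exact ((hzc i0 i0).mul_right (hzc i0 j)).mul_left ((hzc i i0).mul_right (hzc i j))
  · intro i
    apply Subtype.ext
    show z i0 * z i * (z i0 * z i) = 1
    calc z i0 * z i * (z i0 * z i) = z i0 * (z i * z i0) * z i := by simp only [mul_assoc]
      _ = z i0 * (z i0 * z i) * z i := by rw [(hzc i i0).eq]
      _ = (z i0 * z i0) * (z i * z i) := by simp only [mul_assoc]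
      _ = 1 := by rw [hzz, hzz, one_mul]

end Local

end Cfsg.Agent.H807.Tri
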